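import Cfsg.Agent.H63.AnDefs2

/-! The split normal form forces a conjugate acting as a transposition. -/

set_option autoImplicit false
set_option maxRecDepth 100000
set_option linter.unusedSectionVars false

namespace Cfsg.Agent.H68.AnWo

open Cfsg Cfsg.Agent.H63 Cfsg.Agent.H63.AN Subgroup
open Cfsg.Agent.H7.AA (ev Acts)
open Equiv (swap Perm)
open Equiv.Perm (sign)

universe u

def Pb (a b c d e : Bool) : Perm (Fin 10) := pw a ww * pw b s12 * pw c vv * pw d t4 * pw e s0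

def P (c : ℕ) : Perm (Fin 10) :=
  Pb (c.testBit 1) (c.testBit 2) (c.testBit 3) (c.testBit 4) (c.testBit 5)

def tb (a b c d e : Bool) : ℕ := 4 * (a || b).toNat + 2 * (c.toNat + (c ^^ d).toNat + e.toNat)

def ty (c : ℕ) : ℕ := tb (c.testBit 1) (c.testBit 2) (c.testBit 3) (c.testBit 4) (c.testBit 5)

theorem Pb_xor : ∀ a b c d e a' b' c' d' e' : Bool,
    Pb (a ^^ a') (b ^^ b') (c ^^ c') (d ^^ d') (e ^^ e') = Pb a b c d e * Pb a' b' c' d' e' := by
  decide +kernel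

theorem Pb_card : ∀ a b c d e : Bool, (Pb a b c d e).support.card = tb a b c d e := by
  decide +kernel

theorem Pb_sign : ∀ a b c d e : Bool, tb a b c d e = 4 → sign (Pb a b c d e) = 1 := by
  intro a b c d e
  cases a <;> cases b <;> cases c <;> cases d <;> cases e <;>
    simp [tb, Pb, pw, ww, s12, vv, t4, s0]

theorem P_xor (c d : ℕ) : P (c ^^^ d) = P c * P d := by
  simp only [P, Nat.testBit_xor, Pb_xor]

theorem P_sq (c : ℕ) : P c * P c = 1 := by
  rw [← P_xor, Nat.xor_self]; decide +kernel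

def pz (b : Bool) (m : ℕ) : ℕ := cond b m 0

def ap (m : List ℕ) (c : ℕ) : ℕ :=
  pz (c.testBit 0) (m.getD 0 0) ^^^ (pz (c.testBit 1) (m.getD 1 0) ^^^
    pz (c.testBit 2) (m.getD 2 0) ^^^ pz (c.testBit 3) (m.getD 3 0) ^^^
    pz (c.testBit 4) (m.getD 4 0) ^^^ pz (c.testBit 5) (m.getD 5 0))

def cd (a b c d e f : Bool) : ℕ :=
  a.toNat + 2 * b.toNat + 4 * c.toNat + 8 * d.toNat + 16 * e.toNat + 32 * f.toNat

theorem cd_spec : ∀ a b c d e f : Bool,
    (cd a b c d e f).testBit 0 = a ∧ P (cd a b c d e f) = Pb b c d e f := by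
  decide +kernel

def sel (m : List ℕ) : ℕ → List ℕ
  | 0 => m
  | 1 => [1, 4, 6, 8, 16, 32]
  | 2 => [1, 2, 4, 8, 24, 32]
  | _ => [1, 2, 4, 56, 32, 16]

def act (m : List ℕ) (w : List ℕ) (c : ℕ) : ℕ := w.foldr (fun k c => ap (sel m k) c) c

def chk (f : ℕ → ℕ) (c : ℕ) : Bool :=
  ((f 1).testBit 0 && ty (f 1) == 4) || ty (f 1) == 2 || (f 1 == 1 && ty (f c) != ty c)

def certs : List (List ℕ × ℕ) :=
  [([0, 0], 32), ([0, 0], 36), ([0, 0], 48), ([0, 3, 0], 0), ([0, 1, 0], 0), ([0, 3, 0, 3, 0], 4),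
    ([0, 1, 0, 3, 2, 0, 3, 1, 0], 16), ([0, 1, 0, 1, 0], 16), ([0, 1, 0, 1, 1, 0], 16),
    ([0, 3, 1, 0, 3, 1, 0], 16), ([0, 3, 1, 1, 0, 3, 1, 0], 16)]

theorem cert : ∀ a ε δ l a' i l' a'' i' l'' : Bool, (certs.any fun e =>
    chk (act [11, 2, cd a ε true δ false l, 8, cd a' i false i true l', cd a'' i' false i' false l'']
      e.1) e.2) = true := by
  decide +kernel

variable {G : Type u} [Group G] {α : Type} [Fintype α] [DecidableEq α]
  {ψ : alternatingGroup α →* G} {t : G} {x : Fin 10 ↪ α} {j : Perm α →* G}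

noncomputable def E (t : G) (x : Fin 10 ↪ α) (j : Perm α →* G) (c : ℕ) : G :=
  pw (c.testBit 0) t * j (em x (P c))

theorem pw_cm (s : Sec ψ t j) (b : Bool) (σ : Perm α) : j σ * pw b t = pw b t * j σ := by
  cases b
  · simp [pw]
  · exact s.cm σ

theorem E_xor (t2 : t * t = 1) (s : Sec ψ t j) (c d : ℕ) :
    E t x j (c ^^^ d) = E t x j c * E t x j d := by
  have : ∀ a b : Bool, pw (a ^^ b) t = pw a t * pw b t := by
    intro a b; cases a <;> cases b <;> simp [pw, t2]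
  rw [E, E, E, Nat.testBit_xor, this, P_xor, map_mul, map_mul, mul_assoc, mul_assoc,
    ← mul_assoc (j _) (pw _ t), pw_cm s]
  group

theorem E_of {b : Bool} {σ : Perm (Fin 10)} {c : ℕ} (h : c.testBit 0 = b ∧ P c = σ) :
    E t x j c = pw b t * j (em x σ) := by rw [E, h.1, h.2]

theorem E_ev {σ : Perm (Fin 10)} (c : ℕ) (h : c.testBit 0 = false ∧ P c = σ) :
    E t x j c = j (em x σ) := by rw [E_of h]; simp [pw]

theorem E_one : E t x j 1 = t := by
  rw [E_of (b := true) (σ := 1) (by decide +kernel)]; simp [pw]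

theorem E_pz (b : Bool) (m : ℕ) : E t x j (pz b m) = pw b (E t x j m) := by
  cases b
  · rw [pz, cond_false, E_ev (σ := 1) 0 (by decide +kernel)]; simp [pw]
  · rfl

/-- conjugation by `W` acts on the codes as `f` -/
def Tr (t : G) (x : Fin 10 ↪ α) (j : Perm α →* G) (W : G) (f : ℕ → ℕ) : Prop :=
  ∀ c, W * E t x j c * W⁻¹ = E t x j (f c)

theorem tr_basis (t2 : t * t = 1) (s : Sec ψ t j) {W : G} {m0 m1 m2 m3 m4 m5 : ℕ}
    (h0 : W * t * W⁻¹ = E t x j m0) (h1 : W * j (em x ww) * W⁻¹ = E t x j m1)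
    (h2 : W * j (em x s12) * W⁻¹ = E t x j m2) (h3 : W * j (em x vv) * W⁻¹ = E t x j m3)
    (h4 : W * j (em x t4) * W⁻¹ = E t x j m4) (h5 : W * j (em x s0) * W⁻¹ = E t x j m5) :
    Tr t x j W (ap [m0, m1, m2, m3, m4, m5]) := fun c => by
  have k : ∀ (b : Bool) (g : G), MulAut.conj W (pw b g) = pw b (W * g * W⁻¹) := by
    intro b g; cases b <;> simp [pw]
  have k' : ∀ (b : Bool) (σ : Perm (Fin 10)), j (em x (pw b σ)) = pw b (j (em x σ)) := by
    intro b g; cases b <;> simp [pw]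
  rw [← MulAut.conj_apply, ap]
  simp only [E_xor t2 s, E_pz, List.getD_cons_zero, List.getD_cons_succ]
  rw [E, P, Pb]
  simp only [map_mul, k', k, h0, h1, h2, h3, h4, h5]

theorem cj (π σ : Perm (Fin 10)) (c : ℕ) (h : c.testBit 0 = false ∧ P c = π * σ * π⁻¹) :
    j (em x π) * j (em x σ) * (j (em x π))⁻¹ = E t x j c := by
  rw [E_ev c h]; simp only [map_mul, map_inv]

theorem tr_sel (t2 : t * t = 1) (s : Sec ψ t j) {g : G} {m : List ℕ} (h : Tr t x j g (ap m))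
    (k : ℕ) : ∃ W, Tr t x j W (ap (sel m k)) := by
  have h0 : ∀ σ, j σ * t * (j σ)⁻¹ = E t x j 1 := fun σ => by
    rw [E_one, (s.cm σ).eq, mul_inv_cancel_right]
  rcases k with _ | _ | _ | k
  · exact ⟨g, h⟩
  · refine ⟨j (em x (swap 1 2 * swap 2 3)), tr_basis t2 s (h0 _) ?_ ?_ ?_ ?_ ?_⟩ <;>
      exact cj _ _ _ (by decide +kernel)
  · refine ⟨j (em x s34), tr_basis t2 s (h0 _) ?_ ?_ ?_ ?_ ?_⟩ <;>
      exact cj _ _ _ (by decide +kernel)
  · refine ⟨j (em x (swap 6 8 * swap 7 9)), tr_basis t2 s (h0 _) ?_ ?_ ?_ ?_ ?_⟩ <;>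
      exact cj _ _ _ (by decide +kernel)

theorem tr_act (t2 : t * t = 1) (s : Sec ψ t j) {g : G} {m : List ℕ} (h : Tr t x j g (ap m))
    (w : List ℕ) : ∃ W, Tr t x j W (act m w) := by
  induction w with
  | nil => exact ⟨1, fun c => by simp [act]⟩
  | cons k w ih =>
    obtain ⟨W, hW⟩ := ih
    obtain ⟨U, hU⟩ := tr_sel t2 s h k
    refine ⟨U * W, fun c => ?_⟩
    rw [show U * W * E t x j c * (U * W)⁻¹ = U * (W * E t x j c * W⁻¹) * U⁻¹ by group, hW, hU]
    rfl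

theorem E_acts (B : Bs ψ t) (s : Sec ψ t j) (c : ℕ) : Acts ψ (E t x j c) (em x (P c)) := by
  have : Acts ψ (pw (c.testBit 0) t) 1 := by
    cases c.testBit 0
    exacts [H7.AA.acts_one, H7.AA.acts_of_KA B.tK]
  simpa [E] using this.mul (s.ac (em x (P c)))

theorem card_P (c : ℕ) : (em x (P c)).support.card = ty c := by rw [card_em, P, Pb_card, ty]

theorem of_chk (B : Bs ψ t) (K : Kit ψ t) (s : Sec ψ t j) (n4 : ¬ TS ψ t 4) {W : G} {f : ℕ → ℕ}
    (h : Tr t x j W f) {c : ℕ} (hc : chk f c = true) : T1 ψ t := by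
  have h5 : 5 ≤ Fintype.card α := le_trans (by norm_num) B.nine
  have h1 := h 1
  rw [E_one] at h1
  have ic : IsConj t (E t x j (f 1)) := isConj_iff.2 ⟨W, h1⟩
  simp only [chk, Bool.or_eq_true, Bool.and_eq_true, beq_iff_eq, bne_iff_ne] at hc
  rcases hc with (⟨e1, e2⟩ | e) | ⟨e1, e2⟩
  · have sg : sign (em x (P (f 1))) = 1 := by rw [sign_em]; exact Pb_sign _ _ _ _ _ e2
    refine absurd ⟨em x (P (f 1)), by rw [← map_mul, P_sq, map_one], sg, by rw [card_P, e2], ?_⟩ n4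
    rw [E, e1, s.ev _ sg] at ic
    exact ic
  · obtain ⟨a, b, hab, e'⟩ := Equiv.Perm.card_support_eq_two.1 ((card_P (x := x) _).trans e)
    have ha := E_acts (x := x) B s (f 1)
    rw [e'] at ha
    refine ⟨_, a, b, hab, ic, ?_, fun e => ?_, ha⟩
    · refine Commute.mul_left ?_ (s.cm _)
      cases (f 1).testBit 0
      exacts [Commute.one_left t, Commute.refl t]
    · rw [e] at ha
      exact hab (Equiv.swap_eq_one_iff.1 (ha.eq_of h5 B.inj B.tK))
  · rw [e1, E_one] at h1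
    obtain ⟨ρ, hρ⟩ := K.act W (mul_inv_eq_iff_eq_mul.1 h1)
    have := hρ.conj (E_acts (x := x) B s c)
    rw [h c] at this
    have := this.uniq h5 B.inj (E_acts B s (f c))
    exact absurd (by rw [← card_P (x := x), ← this, Equiv.Perm.card_support_conj, card_P]) e2

theorem wo : WoStmt.{u} := by
  intro G _ _ α _ _ ψ t B K _ n4 g x j N
  obtain ⟨a, ε, δ, l, hs⟩ := N.gs
  obtain ⟨a', i, l', h4⟩ := N.g4
  obtain ⟨a'', i', l'', h0⟩ := N.g0
  have s := N.sec
  have ev' : ∀ σ : Perm (Fin 10), sign σ = 1 → j (em x σ) = ev ψ (em x σ) := fun σ h =>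
    s.ev _ (by rw [sign_em, h])
  have sw : sign ww = 1 := by simp [ww]
  have sv : sign vv = 1 := by simp [vv]
  have hg : Tr t x j g (ap [11, 2, cd a ε true δ false l, 8, cd a' i false i true l',
      cd a'' i' false i' false l'']) := by
    refine tr_basis B.t2 s ?_ ?_ ?_ ?_ ?_ ?_
    · rw [N.n0.gt, E_of (b := true) (σ := zz) (by decide +kernel), ev' _ (by simp [zz, sw, sv])]; rfl
    · rw [E_ev (σ := ww) 2 (by decide +kernel), ev' _ sw, N.n0.gw]
    · rw [hs, E_of (cd_spec ..)]; congr 3; clear hs; revert ε δ l; decide +kernel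
    · rw [E_ev (σ := vv) 8 (by decide +kernel), ev' _ sv, N.n0.gv]
    · rw [h4, E_of (cd_spec ..)]; congr 3; clear h4; revert i l'; decide +kernel
    · rw [h0, E_of (cd_spec ..)]; congr 3; clear h0; revert i' l''; decide +kernel
  obtain ⟨e, -, he⟩ := List.any_eq_true.1 (cert a ε δ l a' i l' a'' i' l'')
  obtain ⟨W, hW⟩ := tr_act B.t2 s hg e.1
  exact of_chk B K s n4 hW he

end Cfsg.Agent.H68.AnWo
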