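import Cfsg.Agent.H45.OnDefs

/-! Lines and blocks have at least six points. -/

set_option autoImplicit false

namespace Cfsg.Agent.H68.OnB6

open Cfsg.Agent.H45.On

universe u v

theorem six (i5 : Idx5Stmt.{u}) {G : Type u} {Ω : Type v} [Group G] [Finite G] [MulAction G Ω]
    [Finite Ω] {S : S0 G Ω} {x y : Ω} {T : Subgroup G} (hT : S.C x T) (h : ¬ Fx T y) (hxy : x ≠ y)
    {Φ : Set Ω} (hx : x ∈ Φ) (hy : ∀ s ∈ T, s • y ∈ Φ) : 6 ≤ Φ.ncard := by
  obtain ⟨s, h1, h2⟩ := i5 T (S.simple hT) (S.nab hT) (MulAction.stabilizer G y) h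
  have k : ∀ i, x ≠ s i • y := fun i e => hxy (by
    rw [← smul_left_cancel_iff (s i), S.fx hT _ (h1 i), e])
  let f : Option (Fin 5) → Φ := fun o => o.elim ⟨x, hx⟩ fun i => ⟨s i • y, hy _ (h1 i)⟩
  have := Nat.card_le_card_of_injective f (by
    rintro (_ | i) (_ | j) e
    · rfl
    · exact absurd (congrArg Subtype.val e) (k j)
    · exact absurd (congrArg Subtype.val e).symm (k i)
    · have e' : s i • y = s j • y := congrArg Subtype.val e
      rw [h2 i j (by rw [MulAction.mem_stabilizer_iff, mul_smul, ← e', inv_smul_smul])])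
  simpa using this

theorem b6 (i5 : Idx5Stmt.{u}) : B6Stmt.{u, v} := by
  intro G Ω _ _ _ _ S L K
  have on : ∀ {x y U M T}, S.C x M → S.C x T → T ≠ M → U ≤ M → L.On U y → ∀ s ∈ T, L.On U (s • y) :=
    fun hM hT ne le h s hs => by
      have := K.on s h
      rwa [cj_of_comm fun m hm => S.comm hT hM ne s hs m (le hm)] at this
  refine ⟨?_, fun z w hzw h => ?_⟩
  · rintro _ ⟨x, y, M, M', hxy, hM, hM', rfl, -⟩
    obtain ⟨T, hT, ne, mv⟩ := L.h1 x y M hxy
    exact six i5 hT mv hxy ⟨M, hM, inf_le_left⟩ (on hM.1 hT ne inf_le_left ⟨M', hM', inf_le_right⟩)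
  obtain ⟨T, hT, mv, k⟩ : ∃ T, S.C z T ∧ ¬ Fx T w ∧ ∀ U, L.Ln U → L.On U w → ¬ U ≤ T := by
    rcases L.dd with d | d
    · obtain ⟨M, hM, k⟩ : ∃ M, L.Cp z M ∧ ¬ L.Lk M w := by
        by_contra c
        push Not at c
        exact h.ne (congrArg Set.ncard (Set.ext fun M => and_iff_left_of_imp (c M)))
      exact ⟨M, hM.1, fun f => hzw (d _ _ _ hM.1 f).symm, fun U h1 h2 h3 => k ⟨U, h1, h3, h2⟩⟩
    · obtain ⟨T, -, hT, -, -, e, -⟩ := d z w hzw
      refine ⟨T, hT, fun f => ?_, fun U h1 h2 h3 => K.ne_bot h1 ?_⟩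
      · have : T = ⊥ := by rw [← e]; exact (inf_eq_left.2 f).symm
        exact S.nab hT (by rw [this]; rintro _ rfl _ rfl; rfl)
      · exact eq_bot_iff.2 (e ▸ le_inf h3 (K.fx h2))
  refine six i5 hT mv hzw (fun _ _ h _ => h) fun s hs U h1 ⟨M, hM, le⟩ h2 => ?_
  exact on hM.1 hT (fun e => k U h1 h2 (e ▸ le)) le h2 s hs

end Cfsg.Agent.H68.OnB6
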